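import Mathlib

/-! A certificate format for subgroups of `GL(2, p)` acting regularly on non-zero vectors. -/

set_option autoImplicit false

namespace Cfsg.Agent.Perm

open Matrix

theorem mulVec_fin_two {R : Type*} [CommRing R] (a b c d x y : R) :
    !![a, b; c, d] *ᵥ ![x, y] = ![a * x + b * y, c * x + d * y] := by
  ext i; fin_cases i <;> simp [Matrix.mulVec, dotProduct, Fin.sum_univ_two]

theorem regular_of_cert {p : ℕ} [hp : Fact p.Prime] (S : Set (GL (Fin 2) (ZMod p)))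
    (c : ZMod p → ZMod p → ZMod p × ZMod p) (r : ZMod p → ZMod p → ℕ)
    (hc1 : c 1 0 = (0, 1))
    (hc : ∀ g ∈ S, ∃ a b a' b' : ZMod p, (g : Matrix (Fin 2) (Fin 2) (ZMod p)) = !![a, b; a', b'] ∧
      ∀ x y : ZMod p, (x ≠ 0 ∨ y ≠ 0) → c (a * x + b * y) (a' * x + b' * y) =
        (a * (c x y).1 + b * (c x y).2, a' * (c x y).1 + b' * (c x y).2))
    (hr : ∀ x y : ZMod p, (x ≠ 0 ∨ y ≠ 0) → (x = 1 ∧ y = 0) ∨ ∃ g ∈ S, ∃ x' y' : ZMod p,
      (g : Matrix (Fin 2) (Fin 2) (ZMod p)) *ᵥ ![x', y'] = ![x, y] ∧ r x' y' < r x y) :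
    Nat.card (Subgroup.closure S) = p ^ 2 - 1 ∧ ∀ v w : Fin 2 → ZMod p, v ≠ 0 → w ≠ 0 →
      ∃! h : Subgroup.closure S, ((h : GL (Fin 2) (ZMod p)) : Matrix (Fin 2) (Fin 2) (ZMod p)) *ᵥ v
        = w := by
  let C : (Fin 2 → ZMod p) → (Fin 2 → ZMod p) := fun w => ![(c (w 0) (w 1)).1, (c (w 0) (w 1)).2]
  have hne : ∀ w : Fin 2 → ZMod p, w ≠ 0 ↔ (w 0 ≠ 0 ∨ w 1 ≠ 0) := by
    intro w
    rw [Ne, funext_iff, Fin.forall_fin_two, not_and_or]; rfl
  have heta : ∀ w : Fin 2 → ZMod p, ![w 0, w 1] = w := fun w => by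
    ext i; fin_cases i <;> rfl
  have hinj : ∀ (g : GL (Fin 2) (ZMod p)) (v : Fin 2 → ZMod p),
      (g⁻¹ : GL (Fin 2) (ZMod p)).1 *ᵥ (g.1 *ᵥ v) = v := by
    intro g v
    rw [mulVec_mulVec, Units.inv_mul, one_mulVec]
  have hinj' : ∀ (g : GL (Fin 2) (ZMod p)) (v : Fin 2 → ZMod p),
      g.1 *ᵥ ((g⁻¹ : GL (Fin 2) (ZMod p)).1 *ᵥ v) = v := by
    intro g v
    rw [mulVec_mulVec, Units.mul_inv, one_mulVec]
  have hnz : ∀ (g : GL (Fin 2) (ZMod p)) (v : Fin 2 → ZMod p), v ≠ 0 → g.1 *ᵥ v ≠ 0 := by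
    intro g v hv h
    apply hv
    rw [← hinj g v, h, mulVec_zero]
  have hC : ∀ g ∈ Subgroup.closure S, ∀ w, w ≠ 0 → C (g.1 *ᵥ w) = g.1 *ᵥ C w := by
    intro g hg
    induction hg using Subgroup.closure_induction with
    | mem g hg =>
      intro w hw
      obtain ⟨a, b, a', b', hg', h⟩ := hc g hg
      rw [hg', ← heta w, mulVec_fin_two]
      simp only [C, mulVec_fin_two, cons_val_zero, cons_val_one, h _ _ ((hne w).mp hw)]
    | one => intro w _; simp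
    | mul g k _ _ hg hk =>
      intro w hw
      rw [Units.val_mul, ← mulVec_mulVec, ← mulVec_mulVec, hg _ (hnz k w hw), hk w hw]
    | inv g _ hg =>
      intro w hw
      have := hg _ (hnz g⁻¹ w hw)
      rw [hinj'] at this
      rw [this, hinj]
  have he1 : (![1, 0] : Fin 2 → ZMod p) ≠ 0 := (hne _).mpr (Or.inl one_ne_zero)
  have hstab : ∀ g ∈ Subgroup.closure S, g.1 *ᵥ ![1, 0] = ![1, 0] → g = 1 := by
    intro g hg h
    have h2 := hC g hg _ he1
    rw [h] at h2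
    simp only [C, cons_val_zero, cons_val_one, hc1] at h2
    rw [Matrix.eta_fin_two g.1, mulVec_fin_two] at h h2
    have a1 := congrFun h 0
    have a2 := congrFun h 1
    have a3 := congrFun h2 0
    have a4 := congrFun h2 1
    simp at a1 a2 a3 a4
    ext i j
    fin_cases i <;> fin_cases j <;> simp [a1, a2, ← a3, ← a4]
  have htr : ∀ n, ∀ w : Fin 2 → ZMod p, w ≠ 0 → r (w 0) (w 1) = n →
      ∃ g ∈ Subgroup.closure S, g.1 *ᵥ ![1, 0] = w := by
    intro n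
    induction n using Nat.strong_induction_on with
    | _ n ih =>
      intro w hw hn
      rcases hr _ _ ((hne w).mp hw) with ⟨h0, h1⟩ | ⟨g, hg, x, y, h, hlt⟩
      · exact ⟨1, Subgroup.one_mem _, by rw [← heta w, h0, h1]; simp⟩
      · rw [heta] at h
        obtain ⟨k, hk, hk'⟩ := ih _ (hn ▸ hlt) ![x, y] (by
          intro h0; rw [h0, mulVec_zero] at h; exact hw h.symm) rfl
        exact ⟨g * k, Subgroup.mul_mem _ (Subgroup.subset_closure hg) hk, by
          rw [Units.val_mul, ← mulVec_mulVec, hk', h]⟩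
  have hex : ∀ v w : Fin 2 → ZMod p, v ≠ 0 → w ≠ 0 →
      ∃! h : Subgroup.closure S, ((h : GL (Fin 2) (ZMod p)) : Matrix (Fin 2) (Fin 2) (ZMod p)) *ᵥ v
        = w := by
    intro v w hv hw
    obtain ⟨g, hg, rfl⟩ := htr _ v hv rfl
    obtain ⟨k, hk, rfl⟩ := htr _ w hw rfl
    refine ⟨⟨k * g⁻¹, Subgroup.mul_mem _ hk (Subgroup.inv_mem _ hg)⟩, ?_, ?_⟩
    · simp only [Units.val_mul, ← mulVec_mulVec, hinj]
    · rintro ⟨u, hu⟩ h
      apply Subtype.ext
      have := hstab (k⁻¹ * (u * g)) (Subgroup.mul_mem _ (Subgroup.inv_mem _ hk)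
        (Subgroup.mul_mem _ hu hg)) (by
          simp only at h
          rw [Units.val_mul, Units.val_mul, ← mulVec_mulVec, ← mulVec_mulVec, h, hinj])
      rw [inv_mul_eq_one] at this
      simp [this]
  refine ⟨?_, hex⟩
  have : Nat.card (Subgroup.closure S) = Nat.card {w : Fin 2 → ZMod p // w ≠ 0} := by
    apply Nat.card_eq_of_bijective (fun h => ⟨h.1.1 *ᵥ ![1, 0], hnz _ _ he1⟩)
    constructor
    · intro g k h
      exact (hex _ _ he1 (hnz k.1 _ he1)).unique (congrArg Subtype.val h) rfl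
    · rintro ⟨w, hw⟩
      obtain ⟨g, hg, -⟩ := hex _ _ he1 hw
      exact ⟨g, Subtype.ext hg⟩
  rw [this]
  simp [Fintype.card_subtype_compl]

end Cfsg.Agent.Perm
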