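import Mathlib

/-! Witt's construction of transitive extensions. -/

set_option autoImplicit false

namespace Cfsg.Agent.Perm

open MulAction

theorem witt_step {Γ Ω : Type*} [Group Γ] [MulAction Γ Ω] (G : Subgroup Γ) (o x : Ω)
    (hfix : ∀ f ∈ G, f • o = o) (h g : Γ) (hg : g ∈ G) (h1 : h • o = x) (hxo : x ≠ o)
    (hdc : ∀ f ∈ G, f • x ≠ x → ∃ u ∈ G, u • x = x ∧ u • g • x = f • x)
    (h6 : (g * h) ^ 3 ∈ G) (h7 : h ^ 2 ∈ G) (h8 : ∀ f ∈ G, f • x = x → h * f * h ∈ G) :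
    ∀ f ∈ Subgroup.closure ((G : Set Γ) ∪ {h}), f • o = o ↔ f ∈ G := by
  have key : ∀ f ∈ G, h * f * h ∈ G ∨ ∃ a ∈ G, ∃ b ∈ G, h * f * h = a * h * b := by
    intro f hf
    by_cases hx : f • x = x
    · exact Or.inl (h8 f hf hx)
    obtain ⟨u, hu, hux, e⟩ := hdc f hf hx
    have hv : (g⁻¹ * u⁻¹ * f) • x = x := by rw [mul_smul, mul_smul, ← e, inv_smul_smul, inv_smul_smul]
    have hv' := h8 _ (G.mul_mem (G.mul_mem (G.inv_mem hg) (G.inv_mem hu)) hf) hv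
    refine Or.inr ⟨h * u * h * (h ^ 2)⁻¹ * g⁻¹ * (g * h) ^ 3, G.mul_mem (G.mul_mem (G.mul_mem
      (h8 u hu hux) (G.inv_mem h7)) (G.inv_mem hg)) h6, (h ^ 2)⁻¹ * g⁻¹ * (h ^ 2)⁻¹ *
      (h * (g⁻¹ * u⁻¹ * f) * h), G.mul_mem (G.mul_mem (G.mul_mem (G.inv_mem h7) (G.inv_mem hg))
      (G.inv_mem h7)) hv', ?_⟩
    simp only [pow_succ, pow_zero, one_mul, mul_inv_rev, mul_assoc, mul_inv_cancel_left,
      inv_mul_cancel_left]
  let K : Subgroup Γ :=
    { carrier := {f | f ∈ G ∨ ∃ a ∈ G, ∃ b ∈ G, f = a * h * b}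
      one_mem' := Or.inl G.one_mem
      mul_mem' := by
        rintro f k (hf | ⟨a, ha, b, hb, rfl⟩) (hk | ⟨c, hc, d, hd, rfl⟩)
        · exact Or.inl (G.mul_mem hf hk)
        · exact Or.inr ⟨f * c, G.mul_mem hf hc, d, hd, by group⟩
        · exact Or.inr ⟨a, ha, b * k, G.mul_mem hb hk, by group⟩
        · rcases key _ (G.mul_mem hb hc) with e | ⟨u, hu, v, hv, e⟩
          · exact Or.inl (by simpa [mul_assoc] using G.mul_mem (G.mul_mem ha e) hd)
          · refine Or.inr ⟨a * u, G.mul_mem ha hu, v * d, G.mul_mem hv hd, ?_⟩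
            rw [show a * h * b * (c * h * d) = a * (h * (b * c) * h) * d by group, e]; group
      inv_mem' := by
        rintro f (hf | ⟨a, ha, b, hb, rfl⟩)
        · exact Or.inl (G.inv_mem hf)
        · exact Or.inr ⟨b⁻¹, G.inv_mem hb, (h ^ 2)⁻¹ * a⁻¹, G.mul_mem (G.inv_mem h7) (G.inv_mem ha),
            by simp [pow_two, mul_assoc]⟩ }
  have hle : Subgroup.closure ((G : Set Γ) ∪ {h}) ≤ K := by
    rw [Subgroup.closure_le]
    rintro f (hf | rfl)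
    · exact Or.inl hf
    · exact Or.inr ⟨1, G.one_mem, 1, G.one_mem, by simp⟩
  intro f hf
  refine ⟨fun e => ?_, hfix f⟩
  rcases hle hf with hf | ⟨a, ha, b, hb, rfl⟩
  · exact hf
  · rw [mul_smul, mul_smul, hfix b hb, h1] at e
    exact absurd (MulAction.injective a (e.trans (hfix a ha).symm)) hxo

end Cfsg.Agent.Perm
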